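import Cfsg.Agent.H241.L5.Tor
import Cfsg.Agent.H305.L5.ConjW8
import Cfsg.Agent.H969.L5.TorVL

/-!
# `L₃(5)` in `E₈(3)`: TOR (helper241)
-/

set_option autoImplicit false

namespace Cfsg.Agent.H241.L5

open CoxeterSystem Subgroup Cfsg Cfsg.Lie Cfsg.Lie.ChevalleyDatum
open Cfsg.Agent.ChevalleyStructure Cfsg.Agent.ChevalleyStructure.Elts Cfsg.Agent.ChevalleyStructure.CoxeterGeom
  Cfsg.Agent.ChevalleyStructure.CoxeterGeomTypes Cfsg.Agent.ChevalleyStructure.NPerm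
open Cfsg.Agent.Tits.Roots Cfsg.Agent.Tits.Core Cfsg.Agent.Nodes Cfsg.Agent.Nodes.SubComb Cfsg.Agent.Nodes.Reps
  Cfsg.Agent.Nodes.BNOf Cfsg.Agent.Nodes.RGDChev Cfsg.Agent.Nodes.Bruhat Cfsg.Agent.Nodes.Coroot
open Cfsg.Agent.KFacts.RgdField Cfsg.Agent.KFacts.RgdChevCoord Cfsg.Agent.BpExc.TorCent Cfsg.Agent.BpExc.TorChev
open Cfsg.Agent.GpExc.Field Cfsg.Agent.BpExc.Tow Cfsg.Agent.BpExc.TowChev Cfsg.Agent.BpExc.Fr
  Cfsg.Agent.BpExc.LangFr Cfsg.Agent.BpExc.FamField Cfsg.Agent.BpExc.FamInst Cfsg.Agent.H129.TorusChar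
  Cfsg.Agent.H795.LangT Cfsg.Agent.BpExc.FamExt Cfsg.Agent.BpExc.FamUntw Cfsg.Agent.H378.TorDual Cfsg.Agent.H378.TorChar
  Cfsg.Agent.H378.TorFin Cfsg.Agent.H378.RankOne Cfsg.Agent.H378.RootTor Cfsg.Agent.H865.EE Cfsg.Agent.H865.L5

attribute [local irreducible] w8

variable {k : Type} [Field k] [CharP k 3] [IsAlgClosed k] [PerfectRing k 3]

/-- T3 : `f VL` is conjugate in `GT k` to a regular subset of `T5` -/
theorem tor (hk : LocFin k) (f : SL35 →* ↥(chevE8.group k)) (hf : Function.Injective f) (hr : ∀ x, f x ∈ GT k)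
    (h : ∀ s ∈ VP, f s ∈ T5 k) (hreg : Reg (f '' VP)) :
    ∃ g ∈ GT k, (∀ s ∈ VL, g * f s * g⁻¹ ∈ T5 k) ∧ Reg ((fun s => g * f s * g⁻¹) '' VL) := by
  obtain ⟨ζ, hζ⟩ := H865.L5.exists_zeta3 k
  obtain ⟨e, -, hrg, -, he⟩ := H865.L5.exists_iso3 hk hζ
  exact tor_of hk H305.L5.conj_w8 (H969.L5.toral_VL hk f hf hr h hreg) H343.L5.five_elt
    (fun hu h5 h1 _ _ hφ hψ h0 => H343.L5.fix_line hu h5 h1 hφ hψ h0) hζ hrg he hf hr h hreg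

end Cfsg.Agent.H241.L5
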